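import Mathlib

set_option autoImplicit false

/-! # Unitary rows: elementary arithmetic -/

namespace Cfsg.Agent.Lib.Helper78.SURows

theorem dvd_pow_sub_one_iff {z p : ℕ} (hz : 2 ≤ z) (hp : 0 < p) (d : ℕ) :
    z ∣ p ^ d - 1 ↔ (p % z) ^ d % z = 1 := by
  have h1 : 1 ≤ p ^ d := Nat.one_le_pow _ _ hp
  rw [← Nat.pow_mod]
  constructor
  · intro h
    obtain ⟨c, hc⟩ := h
    have h2 : p ^ d = z * c + 1 := by omega
    rw [h2, Nat.mul_add_mod, Nat.mod_eq_of_lt (by omega)]
  · intro h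
    have h2 := Nat.div_add_mod (p ^ d) z
    rw [h] at h2
    exact ⟨p ^ d / z, by omega⟩

theorem ar7 {p e' q : ℕ} (hp : p.Prime) (he' : 0 < e') (hq : q = p ^ e')
    (hd : 7 ∣ p ^ (2 * e') - 1) (hmin : ∀ d : ℕ, 0 < d → 7 ∣ p ^ d - 1 → 2 * e' ≤ d) :
    (q = p ∧ p % 7 = 6) ∨ (q = p ^ 3 ∧ (p % 7 = 3 ∨ p % 7 = 5)) := by
  simp only [dvd_pow_sub_one_iff (z := 7) (by norm_num) hp.pos] at hd hmin
  have hm : p % 7 < 7 := Nat.mod_lt _ (by norm_num)
  generalize p % 7 = m at *
  interval_cases m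
  · rw [zero_pow (by omega)] at hd; norm_num at hd
  · have := hmin 1 (by norm_num) (by norm_num); omega
  · have := hmin 3 (by norm_num) (by norm_num)
    have h1 : e' = 1 := by omega
    subst h1; norm_num at hd
  · have := hmin 6 (by norm_num) (by norm_num)
    have h1 : e' ≤ 3 := by omega
    interval_cases e'
    · norm_num at hd
    · norm_num at hd
    · exact Or.inr ⟨hq, Or.inl rfl⟩
  · have := hmin 3 (by norm_num) (by norm_num)
    have h1 : e' = 1 := by omega
    subst h1; norm_num at hd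
  · have := hmin 6 (by norm_num) (by norm_num)
    have h1 : e' ≤ 3 := by omega
    interval_cases e'
    · norm_num at hd
    · norm_num at hd
    · exact Or.inr ⟨hq, Or.inr rfl⟩
  · have := hmin 2 (by norm_num) (by norm_num)
    have h1 : e' = 1 := by omega
    subst h1
    exact Or.inl ⟨by rw [hq, pow_one], rfl⟩

theorem ar11 {p e' q : ℕ} (hp : p.Prime) (he' : 0 < e') (hq : q = p ^ e')
    (hd : 11 ∣ p ^ (2 * e') - 1) (hmin : ∀ d : ℕ, 0 < d → 11 ∣ p ^ d - 1 → 2 * e' ≤ d) :
    (q = p ∧ p % 11 = 10) ∨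
      (q = p ^ 5 ∧ (p % 11 = 2 ∨ p % 11 = 6 ∨ p % 11 = 7 ∨ p % 11 = 8)) := by
  simp only [dvd_pow_sub_one_iff (z := 11) (by norm_num) hp.pos] at hd hmin
  have hm : p % 11 < 11 := Nat.mod_lt _ (by norm_num)
  generalize p % 11 = m at *
  interval_cases m
  · rw [zero_pow (by omega)] at hd; norm_num at hd
  · have := hmin 1 (by norm_num) (by norm_num); omega
  · have := hmin 10 (by norm_num) (by norm_num)
    have h1 : e' ≤ 5 := by omega
    interval_cases e' <;> first | (exfalso; norm_num at hd; done) | exact Or.inr ⟨hq, by simp⟩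
  · have := hmin 5 (by norm_num) (by norm_num)
    have h1 : e' ≤ 2 := by omega
    interval_cases e' <;> norm_num at hd
  · have := hmin 5 (by norm_num) (by norm_num)
    have h1 : e' ≤ 2 := by omega
    interval_cases e' <;> norm_num at hd
  · have := hmin 5 (by norm_num) (by norm_num)
    have h1 : e' ≤ 2 := by omega
    interval_cases e' <;> norm_num at hd
  · have := hmin 10 (by norm_num) (by norm_num)
    have h1 : e' ≤ 5 := by omega
    interval_cases e' <;> first | (exfalso; norm_num at hd; done) | exact Or.inr ⟨hq, by simp⟩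
  · have := hmin 10 (by norm_num) (by norm_num)
    have h1 : e' ≤ 5 := by omega
    interval_cases e' <;> first | (exfalso; norm_num at hd; done) | exact Or.inr ⟨hq, by simp⟩
  · have := hmin 10 (by norm_num) (by norm_num)
    have h1 : e' ≤ 5 := by omega
    interval_cases e' <;> first | (exfalso; norm_num at hd; done) | exact Or.inr ⟨hq, by simp⟩
  · have := hmin 5 (by norm_num) (by norm_num)
    have h1 : e' ≤ 2 := by omega
    interval_cases e' <;> norm_num at hd
  · have := hmin 2 (by norm_num) (by norm_num)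
    have h1 : e' = 1 := by omega
    subst h1
    exact Or.inl ⟨by rw [hq, pow_one], rfl⟩

theorem ar3 {p e' q : ℕ} (hp : p.Prime) (he' : 0 < e') (hq : q = p ^ e')
    (hd : 3 ∣ p ^ (2 * e') - 1) (hmin : ∀ d : ℕ, 0 < d → 3 ∣ p ^ d - 1 → 2 * e' ≤ d) :
    q = p ∧ p % 3 = 2 := by
  simp only [dvd_pow_sub_one_iff (z := 3) (by norm_num) hp.pos] at hd hmin
  have hm : p % 3 < 3 := Nat.mod_lt _ (by norm_num)
  generalize p % 3 = m at *
  interval_cases m
  · rw [zero_pow (by omega)] at hd; norm_num at hd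
  · have := hmin 1 (by norm_num) (by norm_num); omega
  · have := hmin 2 (by norm_num) (by norm_num)
    have h1 : e' = 1 := by omega
    subst h1
    exact ⟨by rw [hq, pow_one], rfl⟩

theorem ar4 {p e' q : ℕ} (hp : p.Prime) (he' : 0 < e') (hq : q = p ^ e')
    (hd : 4 ∣ p ^ (2 * e') - 1) (hmin : ∀ d : ℕ, 0 < d → 4 ∣ p ^ d - 1 → 2 * e' ≤ d) :
    q = p ∧ p % 4 = 3 := by
  simp only [dvd_pow_sub_one_iff (z := 4) (by norm_num) hp.pos] at hd hmin
  have hm : p % 4 < 4 := Nat.mod_lt _ (by norm_num)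
  generalize p % 4 = m at *
  interval_cases m
  · rw [zero_pow (by omega)] at hd; norm_num at hd
  · have := hmin 1 (by norm_num) (by norm_num); omega
  · exfalso
    have h2 : (2 : ℕ) ^ (2 * e') = 4 * 4 ^ (e' - 1) := by
      obtain ⟨j, rfl⟩ : ∃ j, e' = j + 1 := ⟨e' - 1, by omega⟩
      rw [pow_mul, Nat.add_sub_cancel, pow_succ]; norm_num [mul_comm]
    rw [h2, Nat.mul_mod_right] at hd
    norm_num at hd
  · have := hmin 2 (by norm_num) (by norm_num)
    have h1 : e' = 1 := by omega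
    subst h1
    exact ⟨by rw [hq, pow_one], rfl⟩

/-- solving `r ^ k = n` for a prime `r` -/
theorem prime_pow_eq_prime {r k n : ℕ} (hr : r.Prime) (hn : n.Prime) (h : n = r ^ k) :
    r = n ∧ k = 1 := by
  have hk : k ≠ 0 := by
    rintro rfl
    rw [pow_zero] at h
    exact hn.one_lt.ne' h
  have h1 : r ∣ n := h ▸ dvd_pow_self r hk
  have h2 : r = n := (Nat.prime_dvd_prime_iff_eq hr hn).1 h1
  refine ⟨h2, ?_⟩
  subst h2
  have h3 : r ^ 1 = r ^ k := by rw [pow_one]; exact h
  exact (Nat.pow_right_injective hr.two_le h3).symm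

theorem pow_le_twelve {k t n : ℕ} (hk : 3 ≤ k) (ht : 2 ≤ t) (hn : n ≤ 12) (h : n = k ^ t) :
    n = 9 ∧ k = 3 ∧ t = 2 := by
  have h1 : k ^ 2 ≤ k ^ t := Nat.pow_le_pow_right (by omega) ht
  have h2 : k ≤ 3 := by
    by_contra hc
    have : 4 ^ 2 ≤ k ^ 2 := Nat.pow_le_pow_left (by omega) 2
    omega
  have h3 : k = 3 := by omega
  subst h3
  have h4 : t ≤ 2 := by
    by_contra hc
    have : 3 ^ 3 ≤ 3 ^ t := Nat.pow_le_pow_right (by norm_num) (by omega)
    omega
  have h5 : t = 2 := by omega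
  subst h5
  exact ⟨by rw [h]; norm_num, rfl, rfl⟩

theorem prime_pow_cases {r k n : ℕ} (hr : r.Prime) (hn : n ≤ 12) (hn2 : 2 ≤ n) (h : n = r ^ k) :
    (k = 1 ∧ r = n) ∨ (n = 4 ∧ r = 2 ∧ k = 2) ∨ (n = 8 ∧ r = 2 ∧ k = 3) ∨
      (n = 9 ∧ r = 3 ∧ k = 2) := by
  have h2 := hr.two_le
  have hk3 : k ≤ 3 := by
    by_contra hc
    have h1 : 2 ^ 4 ≤ r ^ k :=
      (Nat.pow_le_pow_left h2 4).trans (Nat.pow_le_pow_right (by omega) (by omega))
    omega
  interval_cases k
  · simp at h; omega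
  · left; exact ⟨rfl, by rw [h, pow_one]⟩
  · have hr3 : r ≤ 3 := by
      by_contra hc
      have : 4 ^ 2 ≤ r ^ 2 := Nat.pow_le_pow_left (by omega) 2
      omega
    interval_cases r
    · right; left; exact ⟨by rw [h]; norm_num, rfl, rfl⟩
    · right; right; right; exact ⟨by rw [h]; norm_num, rfl, rfl⟩
  · have hr3 : r ≤ 2 := by
      by_contra hc
      have : 3 ^ 3 ≤ r ^ 3 := Nat.pow_le_pow_left (by omega) 3
      omega
    interval_cases r
    right; right; left; exact ⟨by rw [h]; norm_num, rfl, rfl⟩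

theorem two_le_q {F : Type*} [Field F] [Fintype F] {q : ℕ} (hF : Fintype.card F = q ^ 2) :
    2 ≤ q := by
  have h := Fintype.one_lt_card (α := F)
  rw [hF] at h
  by_contra hq
  have h2 : q ≤ 1 := by omega
  interval_cases q <;> simp at h

end Cfsg.Agent.Lib.Helper78.SURows
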