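import Cfsg.Agent.Lib.Helper5.SUAsch.Defs2
import Cfsg.Agent.Lib.Helper5.SUAsch.Bridge
import Cfsg.Agent.Lib.Helper5.SURows.Geo
import Cfsg.Agent.Lib.Helper5.SURows.D1f
import Cfsg.Agent.Lib.Helper72.SURows.TVc
import Cfsg.Agent.Lib.Helper55.Asch.DecCore
import Cfsg.Agent.Lib.Helper58.Asch.D6
import Cfsg.Agent.Lib.Helper72.SURows.TVd
import Cfsg.Agent.Lib.Helper72.SURows.TVg
import Cfsg.Agent.Lib.Helper47.SURows.D1b
import Cfsg.Agent.Lib.Helper47.SURows.D1e
import Cfsg.Agent.Lib.Helper86.SURows.E1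
import Cfsg.Agent.Lib.Helper86.SURows.E2

set_option autoImplicit false

/-! # Unitary rows: from `UCls ∨ residual` to the refined list `URef` for a maximal subgroup -/

namespace Cfsg.Agent.Lib.Helper78.SURows

open Cfsg Cfsg.Geo Matrix Cfsg.Agent.Lib.Helper5.SUAsch Cfsg.Agent.Lib.Helper5.SURows
open Cfsg.Agent.Lib.Helper72.SURows
open Cfsg.Agent.Lib.Helper47.SURows Cfsg.Agent.Lib.Helper86.SURows
open scoped Kronecker MatrixGroups

variable {F : Type*} [Field F] {n q : ℕ}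

theorem subfield_ne_top' [Fintype F] {F₀ : Subfield F} {r : ℕ} (hr : 2 ≤ r)
    (hc : Fintype.card F = Nat.card F₀ ^ r) : F₀ ≠ ⊤ := by
  rintro rfl
  have h1 : Nat.card (⊤ : Subfield F) = Fintype.card F := by
    rw [← Nat.card_eq_fintype_card]
    exact Nat.card_congr Subfield.topEquiv.toEquiv
  rw [h1] at hc
  have h2 : 1 < Fintype.card F := Fintype.one_lt_card
  have h3 : Fintype.card F ^ 1 < Fintype.card F ^ r := Nat.pow_lt_pow_right h2 (by omega)
  rw [pow_one] at h3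
  omega

theorem ts_ne_top (hn : 1 ≤ n) {W : Submodule F (Fin n → F)}
    (hW : IsTotallySingularFor (hermForm n F q) W) : W ≠ ⊤ := by
  rintro rfl
  have h := hW (Pi.single ⟨0, by omega⟩ 1) trivial (Pi.single ⟨0, by omega⟩ 1) trivial
  unfold hermForm at h
  rw [Finset.sum_eq_single (⟨0, by omega⟩ : Fin n)] at h
  · simp at h
  · intro b _ hb
    simp [hb]
  · intro hb
    exact absurd (Finset.mem_univ _) hb

theorem two_le_q' [Fintype F] (hF : Fintype.card F = q ^ 2) : 2 ≤ q := by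
  have h2 : 1 < Fintype.card F := Fintype.one_lt_card
  rw [hF] at h2
  by_contra h
  have : q = 0 ∨ q = 1 := by omega
  rcases this with rfl | rfl <;> simp at h2

/-- REF -/
theorem refined [Fintype F] (hF : Fintype.card F = q ^ 2) (hn : 4 ≤ n)
    (H : Subgroup (GL (Fin n) F)) (hH : IsMaximalIn (SUg n F q) H)
    (hmain : UCls n q H ∨ InUnitaryResidualClass H) : URef n q H := by
  have h3 : 3 ≤ n := by omega
  have h32 : ¬ (n = 3 ∧ q = 2) := by omega
  have hcard : 3 ≤ Fintype.card (Fin n) := by rw [Fintype.card_fin]; exact h3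
  have hq2 : 2 ≤ q := two_le_q' hF
  have hHGU : H ≤ GU n F q := hH.1.le.trans inf_le_left
  obtain ⟨g, hgS, hgT⟩ := exists_isTv (F := F) hF h3
  -- the decomposition target
  have TD : ∀ (t k : ℕ) (D : Fin t → Submodule F (Fin n → F)),
      IsNondegenerateMDecomposition (hermForm n F q) k D → (k = 2 → 3 ≤ q) →
      H ≤ decompositionStabilizer D → URef n q H := fun t k D hD hk h =>
    Or.inr (Or.inr (Or.inl ⟨t, k, D, hD, by simpa using
      Cfsg.Agent.Lib.Helper55.Asch.card_of_decomp D hD.decomp, hk,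
      eq_inf_of_maximal hH h (su_not_le_decomp hF h3 h32 D hD.decomp)⟩))
  rcases hmain with hc | hres
  swap
  · iterate 11 right
    exact hres
  rcases hc with ⟨W, h0, h1, h⟩ | ⟨W, h0, h1, h2, h⟩ | ⟨t, k, D, hD, h⟩ | ⟨k, D, hk, hD, hs, h⟩ |
    ⟨F₀, r, P, hr, ho, hc, hf, h⟩ | ⟨F₀, P, ho, hc, hf, h⟩ | ⟨F₀, P, ζ, he, hc, h0, h1, hf, ha, h⟩ |
    ⟨r, R, p, e, k, h1, h2, h3', h4, h5, h6, h7, h⟩ | ⟨r, K, hr, ho, hK, ha, h⟩ |
    ⟨a, b, e, P, f₁, f₂, ha, hb, h1, h2, h3', h⟩ | ⟨k, t, e, P, f₁, hk, ht, hx, h1, h2, h⟩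
  · exact Or.inl ⟨W, h0, h1, eq_inf_of_maximal hH h
      (su_not_le_stab hF h3 W h0 (ts_ne_top (by omega) h1))⟩
  · refine Or.inr (Or.inl ⟨W, h0, h1, h2, eq_inf_of_maximal hH h
      (su_not_le_stab hF h3 W h0 ?_)⟩)
    rintro rfl
    rw [finrank_top, Module.finrank_fintype_fun_eq_card, Fintype.card_fin] at h2
    omega
  · by_cases hk2 : k = 2 ∧ q = 2
    · obtain ⟨rfl, rfl⟩ := hk2
      obtain ⟨t', D', hD', hle⟩ := blocks_two_q2 hF D hD
      exact TD t' 1 D' hD' (fun h' => absurd h' (by norm_num)) ((le_inf h hHGU).trans hle)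
    · exact TD t k D hD (fun h' => by omega) h
  · exact Or.inr (Or.inr (Or.inr (Or.inl ⟨k, D, hk, hD, hs,
      eq_inf_of_maximal hH h (su_not_le_decomp hF h3 h32 D hD)⟩)))
  · exact Or.inr (Or.inr (Or.inr (Or.inr (Or.inl ⟨F₀, r, P, hr, ho, hc, hf,
      eq_inf_of_maximal hH h (su_not_le_subfield hF hn F₀ (subfield_ne_top' hr.two_le hc) P)⟩))))
  · exact Or.inr (Or.inr (Or.inr (Or.inr (Or.inr (Or.inl ⟨F₀, P, ho, hc, hf,
      eq_inf_of_maximal hH h (su_not_le_subfield hF hn F₀ (subfield_ne_top' le_rfl hc) P)⟩)))))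
  · exact Or.inr (Or.inr (Or.inr (Or.inr (Or.inr (Or.inr (Or.inl ⟨F₀, P, ζ, he, hc, h0, h1, hf, ha,
      eq_inf_of_maximal hH h (su_not_le_subfield hF hn F₀ (subfield_ne_top' le_rfl hc) P)⟩))))))
  · exact Or.inr (Or.inr (Or.inr (Or.inr (Or.inr (Or.inr (Or.inr (Or.inl
      ⟨r, R, p, e, k, h1, h2, h3', h4, h5, h6, h7,
      eq_inf_of_maximal hH h (su_not_le_normalizer hF h3 h32 h5.2.1 h1.prime h4 R h1.pGroup h2 h3')⟩)))))))
  · exact Or.inr (Or.inr (Or.inr (Or.inr (Or.inr (Or.inr (Or.inr (Or.inr (Or.inl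
      ⟨r, K, hr, ho, by simpa using Cfsg.Agent.Lib.Helper58.Asch.dvd_card_of_field K hK, hK, ha,
      eq_inf_of_maximal hH h (fun hle => tv_not_mem_field hcard hr K hK g hgT (hle hgS))⟩))))))))
  · have hab : a * b = n := by
      have := Fintype.card_congr e
      simpa using this.symm
    by_cases ha2 : a = 2 ∧ q = 2
    · obtain ⟨rfl, rfl⟩ := ha2
      obtain ⟨D, hD, hle⟩ := tensor_two_q2 hF (by omega) e P f₁ f₂ h1 h2 h3'
      exact TD 2 b D hD (fun h' => by omega) ((le_inf h hHGU).trans hle)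
    · exact Or.inr (Or.inr (Or.inr (Or.inr (Or.inr (Or.inr (Or.inr (Or.inr (Or.inr (Or.inl
        ⟨a, b, e, P, f₁, f₂, ha, hb, hab, fun h' => by omega, h1, h2, h3',
        eq_inf_of_maximal hH h
          (fun hle => tv_not_mem_tensor ha (by omega) e P g hgT (hle hgS))⟩)))))))))
  · have hkt : n = k ^ t := by
      have := Fintype.card_congr e
      simpa using this
    refine Or.inr (Or.inr (Or.inr (Or.inr (Or.inr (Or.inr (Or.inr (Or.inr (Or.inr (Or.inr (Or.inl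
        ⟨k, t, e, P, f₁, hk, ht, hkt, hx, h1, h2, h, ?_⟩))))))))))
    rintro rfl
    exact eq_inf_of_maximal hH h (fun hle => tv_not_mem_wreath_two hk e P g hgT (hle hgS))

end Cfsg.Agent.Lib.Helper78.SURows
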