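import Cfsg.Agent.Lib.Helper5.SUAsch.Defs2
import Cfsg.Agent.Lib.Helper78.SURows.Arith
import Cfsg.Agent.Lib.Helper72.SURows.A6
import Cfsg.Agent.Lib.Helper72.SURows.A11

set_option autoImplicit false

namespace Cfsg.Agent.Lib.Helper78.SURows

open Cfsg Cfsg.Geo Matrix Cfsg.Agent.Lib.Helper5.SUAsch
open Cfsg.Agent.Lib.Helper72.SURows
open scoped Kronecker MatrixGroups

theorem row7 {F : Type*} [Field F] [Fintype F] (q : ℕ) (hF : Fintype.card F = q ^ 2) (H : Subgroup (Matrix.GeneralLinearGroup (Fin 7) F)) (h : URef 7 q H) :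
    (∃ W : Submodule F (Fin 7 → F), W ≠ ⊥ ∧ Cfsg.Geo.IsTotallySingularFor (Cfsg.hermForm 7 F q) W ∧ H = Cfsg.Geo.subspaceStabilizer W ⊓ (Cfsg.GU 7 F q ⊓ Cfsg.Geo.specialLinear (Fin 7) F)) ∨
    (∃ W : Submodule F (Fin 7 → F), W ≠ ⊥ ∧ Cfsg.Geo.IsNondegenerateOn (Cfsg.hermForm 7 F q) W ∧ 2 * Module.finrank F W < 7 ∧ H = Cfsg.Geo.subspaceStabilizer W ⊓ (Cfsg.GU 7 F q ⊓ Cfsg.Geo.specialLinear (Fin 7) F)) ∨
    (∃ D : Fin 7 → Submodule F (Fin 7 → F), Cfsg.Geo.IsNondegenerateMDecomposition (Cfsg.hermForm 7 F q) 1 D ∧ H = Cfsg.Geo.decompositionStabilizer D ⊓ (Cfsg.GU 7 F q ⊓ Cfsg.Geo.specialLinear (Fin 7) F)) ∨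
    (∃ K : Subalgebra F (Matrix (Fin 7) (Fin 7) F), Cfsg.Geo.IsFieldSubalgebra 7 K ∧ Cfsg.Geo.IsAdjointClosedFor (Cfsg.hermForm 7 F q) K ∧ H = Cfsg.Geo.subalgebraNormalizer K ⊓ (Cfsg.GU 7 F q ⊓ Cfsg.Geo.specialLinear (Fin 7) F)) ∨
    (∃ (F₀ : Subfield F) (r : ℕ) (P : Matrix.GeneralLinearGroup (Fin 7) F), r.Prime ∧ Odd r ∧ Fintype.card F = Nat.card F₀ ^ r ∧ Cfsg.Geo.IsFormRationalStructure (Cfsg.hermForm 7 F q) F₀ 1 P ∧ H = Cfsg.Geo.subfieldSubgroup F₀ P ⊓ (Cfsg.GU 7 F q ⊓ Cfsg.Geo.specialLinear (Fin 7) F)) ∨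
    (Odd q ∧ ∃ (F₀ : Subfield F) (P : Matrix.GeneralLinearGroup (Fin 7) F), Fintype.card F = Nat.card F₀ ^ 2 ∧ Cfsg.Geo.IsFormRationalStructure (Cfsg.hermForm 7 F q) F₀ 1 P ∧ H = Cfsg.Geo.subfieldSubgroup F₀ P ⊓ (Cfsg.GU 7 F q ⊓ Cfsg.Geo.specialLinear (Fin 7) F)) ∨
    (∃ (p : ℕ) (R : Subgroup (Matrix.GeneralLinearGroup (Fin 7) F)), p.Prime ∧ CharP F p ∧ ((q = p ∧ p % 7 = 6) ∨ (q = p ^ 3 ∧ (p % 7 = 3 ∨ p % 7 = 5))) ∧ Cfsg.Geo.IsSymplecticTypeGroup 7 R ∧ Cfsg.Geo.ActsAbsolutelyIrreducibly (Cfsg.Geo.matrixSet R) ∧ R ≤ Cfsg.Geo.similarityGroup (Cfsg.hermForm 7 F q) ∧ Nat.card R = 343 ∧ Nat.card (Subgroup.center R) = 7 ∧ H = Cfsg.Geo.subgroupNormalizer R ⊓ (Cfsg.GU 7 F q ⊓ Cfsg.Geo.specialLinear (Fin 7) F)) ∨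
    Cfsg.Geo.InUnitaryResidualClass H := by
  rcases h with ⟨W, h0, h1, h⟩ | ⟨W, h0, h1, h2, h⟩ | ⟨t, k, D, hD, htk, hk2, h⟩ |
    ⟨k, D, hk, hD, hs, h⟩ | ⟨F₀, r, P, hr, ho, hc, hf, h⟩ | ⟨F₀, P, ho, hc, hf, h⟩ |
    ⟨F₀, P, ζ, he, hc, h0, h1, hf, ha, h⟩ | ⟨r, R, p, e, k, h1, h2, h3, h4, h5, h6, h7, h⟩ |
    ⟨r, K, hr, ho, hd, hK, ha, h⟩ | ⟨a, b, e, P, f₁, f₂, ha, hb, hab, hq2, h1, h2, h3, h⟩ |
    ⟨k, t, e, P, f₁, hk, ht, hn, hx, h1, h2, h3, h4⟩ | h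
  · exact Or.inl ⟨W, h0, h1, h⟩
  · exact Or.inr (Or.inl ⟨W, h0, h1, h2, h⟩)
  · have ht2 := hD.decomp.two_le
    have hkpos := hD.decomp.pos
    have htn : t ≤ 7 := by nlinarith
    interval_cases t
    · omega
    · omega
    · omega
    · omega
    · omega
    · obtain rfl : k = 1 := by omega
      exact Or.inr (Or.inr (Or.inl ⟨D, hD, h⟩))
  · omega
  · exact Or.inr (Or.inr (Or.inr (Or.inr (Or.inl ⟨F₀, r, P, hr, ho, hc, hf, h⟩))))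
  · exact Or.inr (Or.inr (Or.inr (Or.inr (Or.inr (Or.inl ⟨ho, F₀, P, hc, hf, h⟩)))))
  · exact absurd he (by decide)
  · obtain ⟨rfl, rfl⟩ := prime_pow_eq_prime h1.prime (by norm_num : Nat.Prime 7) h7
    rcases h6 with ⟨-, hz, -, hR⟩ | ⟨h, -⟩
    · rw [hz] at h5
      obtain ⟨hp, hch, e', rfl, he', hq, hdv, hnd, hmin⟩ := arith6 hF h5
      exact Or.inr (Or.inr (Or.inr (Or.inr (Or.inr (Or.inr (Or.inl ⟨p, R, hp, hch, ar7 hp he' hq hdv hmin, h1, h2, h3, by rw [hR]; norm_num, hz, h⟩))))))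
    · omega
  · have hr7 : r = 7 := by
      have hle : r ≤ 7 := Nat.le_of_dvd (by norm_num) hd
      have h2 := hr.two_le
      interval_cases r <;> first | rfl | (exfalso; revert hd; decide) | (exfalso; revert ho; decide) | (exfalso; revert hr; decide)
    subst hr7
    exact Or.inr (Or.inr (Or.inr (Or.inl ⟨K, hK, ha, h⟩)))
  · have han : a ≤ 7 := by nlinarith
    interval_cases a
    · omega
    · omega
    · omega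
    · omega
    · omega
    · omega
  · have := pow_le_twelve hk ht (by norm_num) hn
    omega
  · exact Or.inr (Or.inr (Or.inr (Or.inr (Or.inr (Or.inr (Or.inr (h)))))))

end Cfsg.Agent.Lib.Helper78.SURows
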